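import Cfsg.Agent.H14.Sp6.Coxeter
import Cfsg.Prelude.Def_KGroupFacts

/-!
# The double cover of `Sp₆(2)`

Clifford lifts of the reflections of `E₇` as `8 × 8` matrices over the field with three elements.
-/

set_option autoImplicit false

namespace Cfsg.Agent.H14.Sp6

open scoped commutatorElement

/-- The matrix ring. -/
abbrev Mat8 : Type := Matrix (Fin 8) (Fin 8) (ZMod 3)

/-- The Clifford lifts. -/
def cliffMat (i : Fin 7) : Mat8 :=
  Matrix.of fun a b => (((cliffordCode >>> (2 * (64 * i.val + 8 * a.val + b.val))) % 4 : ℕ) : ZMod 3)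

theorem cliffMat_sq : ∀ i, cliffMat i * cliffMat i = -1 := by decide +kernel

theorem cliffMat_comm : ∀ i j, mE7 i j = 2 → cliffMat i * cliffMat j = -(cliffMat j * cliffMat i) := by
  decide +kernel

theorem cliffMat_braid : ∀ i j, mE7 i j = 3 →
    cliffMat i * cliffMat j * cliffMat i = cliffMat j * cliffMat i * cliffMat j ∨
    cliffMat i * cliffMat j * cliffMat i = -(cliffMat j * cliffMat i * cliffMat j) := by decide +kernel

/-- The Clifford lifts as units. -/
def cliffUnit (i : Fin 7) : Mat8ˣ where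
  val := cliffMat i
  inv := -cliffMat i
  val_inv := by rw [mul_neg, cliffMat_sq, neg_neg]
  inv_val := by rw [neg_mul, cliffMat_sq, neg_neg]

/-- The sign subgroup. -/
def signs : Subgroup Mat8ˣ := Subgroup.zpowers (-1)

theorem neg_one_central (x : Mat8ˣ) : x * (-1) = (-1) * x := Units.ext (by simp)

theorem signs_le_center : signs ≤ Subgroup.center Mat8ˣ :=
  Subgroup.zpowers_le.mpr (Subgroup.mem_center_iff.mpr neg_one_central)

theorem mem_signs {x : Mat8ˣ} : x ∈ signs ↔ x = 1 ∨ x = -1 := by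
  constructor
  · rintro ⟨n, rfl⟩
    show ((-1 : Mat8ˣ)) ^ n = 1 ∨ ((-1 : Mat8ˣ)) ^ n = -1
    rcases Int.even_or_odd n with h | h
    · exact Or.inl h.neg_one_zpow
    · exact Or.inr h.neg_one_zpow
  · rintro (rfl | rfl)
    · exact one_mem _
    · exact Subgroup.mem_zpowers _

instance instSignsNormal : signs.Normal :=
  ⟨fun x hx g => by rw [Subgroup.mem_center_iff.mp (signs_le_center hx) g, mul_inv_cancel_right]; exact hx⟩

/-- The map to the quotient by signs. -/
def modSign : Mat8ˣ →* Mat8ˣ ⧸ signs := QuotientGroup.mk' signs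

theorem modSign_eq {A B : Mat8ˣ} (h : (A : Mat8) = (B : Mat8) ∨ (A : Mat8) = -(B : Mat8)) :
    modSign A = modSign B := by
  rcases h with h | h
  · rw [Units.ext h]
  · have e : A = (-1) * B := Units.ext (by simp [h])
    rw [e, map_mul, show modSign (-1) = 1 from (QuotientGroup.eq_one_iff _).mpr (Subgroup.mem_zpowers _),
      one_mul]

theorem modSign_liftable : CoxeterMatrix.E₇.IsLiftable fun i => modSign (cliffUnit i) := by
  refine liftable_of_rels _ (fun i => ?_) (fun i j h => ?_) fun i j h => ?_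
  · rw [← map_mul, ← map_one modSign]
    exact modSign_eq (Or.inr (by simp [cliffUnit, cliffMat_sq]))
  · rw [← map_mul, ← map_mul]
    exact modSign_eq (Or.inr (by simpa [cliffUnit] using cliffMat_comm i j h))
  · rw [← map_mul, ← map_mul, ← map_mul, ← map_mul]
    exact modSign_eq (by simpa [cliffUnit] using cliffMat_braid i j h)

theorem witness_neg_one :
    ⁅cliffUnit 0 * cliffUnit 1, cliffUnit 5 * cliffUnit 1⁆ = (-1 : Mat8ˣ) := by decide +kernel

/-- `Sp₆(2)` has a stem extension with kernel of order two. -/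
theorem exists_stem {F : Type*} [Field F] [Finite F] [CharP F 2] (hF : Nat.card F = 2) :
    ∃ (Γ : Subgroup (Mat8ˣ × Cfsg.PSp 3 F)) (σ : Γ →* Cfsg.PSp 3 F),
      Cfsg.IsStemExtension σ ∧ Nat.card σ.ker = 2 := by
  haveI := finite_W7
  let gen : Fin 7 → Mat8ˣ × Cfsg.PSp 3 F := fun i => (cliffUnit i, pspHom F (CoxeterMatrix.E₇.simple i))
  let Γ0 : Subgroup (Mat8ˣ × Cfsg.PSp 3 F) := Subgroup.closure (Set.range gen)
  let Γ : Subgroup (Mat8ˣ × Cfsg.PSp 3 F) := ⁅Γ0, Γ0⁆
  let P : Mat8ˣ × Cfsg.PSp 3 F →* (Mat8ˣ ⧸ signs) × Cfsg.PSp 3 F := modSign.prodMap (MonoidHom.id _)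
  let Φ : W7 →* (Mat8ˣ ⧸ signs) × Cfsg.PSp 3 F := (lift7 _ modSign_liftable).prod (pspHom F)
  have hPΦ : ∀ i, P (gen i) = Φ (CoxeterMatrix.E₇.simple i) := fun i =>
    Prod.ext (lift7_simple _ modSign_liftable i).symm rfl
  have hrange : Γ0.map P = (⊤ : Subgroup W7).map Φ := by
    rw [MonoidHom.map_closure, ← closure_simple, MonoidHom.map_closure, ← Set.range_comp, ← Set.range_comp]
    congr 1
    exact congrArg Set.range (funext hPΦ)
  have hΓ : Γ.map P = (commutator W7).map Φ := by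
    show (⁅Γ0, Γ0⁆).map P = _
    rw [Subgroup.map_commutator, hrange, commutator_def, Subgroup.map_commutator]
  let σ : Γ →* Cfsg.PSp 3 F := (MonoidHom.snd _ _).comp Γ.subtype
  have hsurj : Function.Surjective σ := by
    intro g
    obtain ⟨w, hw, rfl⟩ := (map_commutator_W7 hF).ge (Subgroup.mem_top g)
    obtain ⟨x, hx, e⟩ := hΓ.ge (Subgroup.mem_map_of_mem Φ hw)
    exact ⟨⟨x, hx⟩, congrArg Prod.snd e⟩
  have hker : ∀ x ∈ Γ, x.2 = 1 → x.1 = 1 ∨ x.1 = -1 := by
    intro x hx h1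
    obtain ⟨w, hw, e⟩ := hΓ.le (Subgroup.mem_map_of_mem P hx)
    have hw1 : w = 1 := eq_one_of_pspHom_eq_one hF hw ((congrArg Prod.snd e).trans h1)
    rw [hw1, map_one] at e
    exact mem_signs.mp ((QuotientGroup.eq_one_iff _).mp (congrArg Prod.fst e).symm)
  -- the element `-1`
  have hmem : ∀ i j : Fin 7, CoxeterMatrix.E₇.simple i * CoxeterMatrix.E₇.simple j ∈ commutator W7 := by
    intro i j
    rw [(card_commutator_W7 hF).2, MonoidHom.mem_ker, map_mul, sign7, lift7_simple, lift7_simple]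
    decide
  have hlift : ∀ i j : Fin 7, ∃ u ∈ signs, ((cliffUnit i * cliffUnit j * u,
      pspHom F (CoxeterMatrix.E₇.simple i * CoxeterMatrix.E₇.simple j)) : Mat8ˣ × Cfsg.PSp 3 F) ∈ Γ := by
    intro i j
    obtain ⟨x, hx, e⟩ := hΓ.ge (Subgroup.mem_map_of_mem Φ (hmem i j))
    have e1 : modSign x.1 = modSign (cliffUnit i * cliffUnit j) := by
      have := congrArg Prod.fst e
      simp only [Φ, MonoidHom.prod_apply, map_mul, lift7_simple] at this
      rw [map_mul]; exact this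
    refine ⟨(cliffUnit i * cliffUnit j)⁻¹ * x.1, ?_, ?_⟩
    · rw [← QuotientGroup.eq_one_iff]
      show modSign _ = 1
      rw [map_mul, map_inv, e1, inv_mul_cancel]
    · have e2 : x = (cliffUnit i * cliffUnit j * ((cliffUnit i * cliffUnit j)⁻¹ * x.1),
          pspHom F (CoxeterMatrix.E₇.simple i * CoxeterMatrix.E₇.simple j)) :=
        Prod.ext (by group) ((congrArg Prod.snd e : (P x).2 = _))
      rwa [← e2]
  obtain ⟨u, hu, hg⟩ := hlift 0 1
  obtain ⟨v, hv, hh⟩ := hlift 5 1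
  have hcomm : Commute (pspHom F (CoxeterMatrix.E₇.simple 0 * CoxeterMatrix.E₇.simple 1))
      (pspHom F (CoxeterMatrix.E₇.simple 5 * CoxeterMatrix.E₇.simple 1)) := by
    have c : ∀ i j, mE7 i j = 2 → Commute (CoxeterMatrix.E₇.simple i) (CoxeterMatrix.E₇.simple j) := by
      intro i j h
      have e : (CoxeterMatrix.E₇.simple i * CoxeterMatrix.E₇.simple j) ^ mE7 i j = 1 := by
        show _ ^ CoxeterMatrix.E₇ i j = 1
        rw [← CoxeterMatrix.toCoxeterSystem_simple, CoxeterSystem.simple_mul_simple_pow]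
      rw [h, pow_two] at e
      have hi : ∀ k, (CoxeterMatrix.E₇.simple k)⁻¹ = CoxeterMatrix.E₇.simple k := fun k => by
        rw [← CoxeterMatrix.toCoxeterSystem_simple, CoxeterSystem.inv_simple]
      show _ = _
      rw [← inv_eq_of_mul_eq_one_right e, mul_inv_rev, hi, hi]
    refine Commute.map ?_ _
    exact ((c 0 5 (by decide)).mul_right (c 0 1 (by decide))).mul_left
      ((c 1 5 (by decide)).mul_right (Commute.refl _))
  let gΓ : Γ := ⟨_, hg⟩
  let hΓ' : Γ := ⟨_, hh⟩
  let z : Γ := ⁅gΓ, hΓ'⁆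
  have hz1 : z.1.1 = -1 := by
    have e : z.1.1 = ⁅cliffUnit 0 * cliffUnit 1 * u, cliffUnit 5 * cliffUnit 1 * v⁆ := by
      simp [z, gΓ, hΓ', commutatorElement_def]
    have hcu : ∀ x : Mat8ˣ, Commute x u := fun x => Subgroup.mem_center_iff.mp (signs_le_center hu) x
    have hcv : ∀ x : Mat8ˣ, Commute x v := fun x => Subgroup.mem_center_iff.mp (signs_le_center hv) x
    rw [e, ← witness_neg_one]
    have k1 : ∀ x y : Mat8ˣ, ⁅x * u, y⁆ = ⁅x, y⁆ := fun x y => by
      simp only [commutatorElement_def, mul_inv_rev]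
      calc x * u * y * (u⁻¹ * x⁻¹) * y⁻¹ = x * (u * y) * u⁻¹ * x⁻¹ * y⁻¹ := by group
        _ = x * (y * u) * u⁻¹ * x⁻¹ * y⁻¹ := by rw [(hcu y).eq]
        _ = _ := by group
    have k2 : ∀ x y : Mat8ˣ, ⁅x, y * v⁆ = ⁅x, y⁆ := fun x y => by
      simp only [commutatorElement_def, mul_inv_rev]
      calc x * (y * v) * x⁻¹ * (v⁻¹ * y⁻¹) = x * y * (v * x⁻¹) * v⁻¹ * y⁻¹ := by group
        _ = x * y * (x⁻¹ * v) * v⁻¹ * y⁻¹ := by rw [(hcv x⁻¹).eq]
        _ = _ := by group
    rw [k1, k2]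
  have hz2 : σ z = 1 := by
    show σ ⁅gΓ, hΓ'⁆ = 1
    rw [map_commutatorElement, commutatorElement_eq_one_iff_commute]
    exact hcomm
  have hzc : z ∈ commutator Γ := Subgroup.commutator_mem_commutator (Subgroup.mem_top _) (Subgroup.mem_top _)
  have hdich : ∀ x ∈ σ.ker, x = 1 ∨ x = z := by
    intro x hx
    rcases hker x.1 x.2 hx with h | h
    · exact Or.inl (Subtype.ext (Prod.ext h hx))
    · exact Or.inr (Subtype.ext (Prod.ext (h.trans hz1.symm) (hx.trans hz2.symm)))
  refine ⟨Γ, σ, ⟨hsurj, ?_, ?_⟩, ?_⟩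
  · intro x hx
    refine Subgroup.mem_center_iff.mpr fun g => Subtype.ext (Prod.ext ?_ ?_)
    · show g.1.1 * x.1.1 = x.1.1 * g.1.1
      rcases hker x.1 x.2 hx with h | h <;> rw [h]
      · rw [mul_one, one_mul]
      · exact neg_one_central _
    · show g.1.2 * x.1.2 = x.1.2 * g.1.2
      rw [show x.1.2 = 1 from hx, mul_one, one_mul]
  · intro x hx
    rcases hdich x hx with rfl | rfl
    · exact one_mem _
    · exact hzc
  · rw [Nat.card_eq_two_iff]
    refine ⟨1, ⟨z, hz2⟩, fun h => ?_, ?_⟩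
    · have e := congrArg (fun w : σ.ker => w.1.1.1) h
      simp only [OneMemClass.coe_one, Prod.fst_one, hz1] at e
      exact absurd e (by decide +kernel)
    · refine Set.eq_univ_of_forall fun x => ?_
      rcases hdich x.1 x.2 with h | h
      · exact Or.inl (Subtype.ext h)
      · exact Or.inr (Subtype.ext h)

end Cfsg.Agent.H14.Sp6
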