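import Cfsg.Agent.H14.Sp6.Coxeter
import Cfsg.Prelude.Def_KGroupFacts

/-!
# The multiplier of `Sp₆(2)` has order at most two

Lifts of the reflections of `W(E₇)` in a stem extension satisfy the Coxeter relations up to a common
square `c` and a common commutator `b` of commuting pairs.
-/

set_option autoImplicit false

namespace Cfsg.Agent.H14.Sp6

open scoped commutatorElement

section pieces

variable {Δ : Type*} [Group Δ]

theorem commutator_central_right {x y z : Δ} (hz : z ∈ Subgroup.center Δ) : ⁅x, y * z⁆ = ⁅x, y⁆ := by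
  have e : x * z = z * x := Subgroup.mem_center_iff.mp hz x
  simp only [commutatorElement_def, mul_inv_rev]
  calc x * (y * z) * x⁻¹ * (z⁻¹ * y⁻¹) = x * y * (z * x⁻¹) * z⁻¹ * y⁻¹ := by group
    _ = x * y * (x⁻¹ * z) * z⁻¹ * y⁻¹ := by rw [Subgroup.mem_center_iff.mp hz x⁻¹]
    _ = x * y * x⁻¹ * y⁻¹ := by group

theorem commutator_central_left {x y z : Δ} (hz : z ∈ Subgroup.center Δ) : ⁅x * z, y⁆ = ⁅x, y⁆ := by
  rw [← commutatorElement_inv y (x * z), commutator_central_right hz, commutatorElement_inv]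

/-- A lift can be corrected by a central element so that the braid relation holds exactly. -/
theorem exists_braid {K : Subgroup Δ} (hK : K ≤ Subgroup.center Δ) {p c d : Δ} (hd : d ∈ K)
    (h : p * c * p = c * p * c * d) : ∃ z ∈ K, p * (c * z) * p = c * z * p * (c * z) := by
  refine ⟨d, hd, ?_⟩
  have hc : ∀ x, x * d = d * x := fun x => Subgroup.mem_center_iff.mp (hK hd) x
  calc p * (c * d) * p = (p * c) * (d * p) := by group
    _ = (p * c) * (p * d) := by rw [hc p]
    _ = (p * c * p) * d := by group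
    _ = c * p * c * d * d := by rw [h]
    _ = c * (p * c * d) * d := by group
    _ = c * (d * (p * c)) * d := by rw [hc (p * c)]
    _ = c * d * p * (c * d) := by group

theorem conj_of_braid {a b : Δ} (h : a * b * a = b * a * b) : b = (a * b) * a * (a * b)⁻¹ := by
  rw [h]; group

theorem sq_eq_of_braid {a b : Δ} (h : a * b * a = b * a * b) (ha : a * a ∈ Subgroup.center Δ) :
    b * b = a * a := by
  calc b * b = (a * b) * (a * a) * (a * b)⁻¹ := by
        conv_lhs => rw [conj_of_braid h]
        group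
    _ = _ := by rw [Subgroup.mem_center_iff.mp ha (a * b), mul_inv_cancel_right]

/-- The commutator of commuting lifts moves along the diagram. -/
theorem commutator_move {a b k : Δ} (h : a * b * a = b * a * b) (h1 : ⁅a, k⁆ ∈ Subgroup.center Δ)
    (h2 : ⁅b, k⁆ ∈ Subgroup.center Δ) : ⁅b, k⁆ = ⁅a, k⁆ := by
  set g := a * b with hg
  set z := ⁅g⁻¹, k⁆ with hzdef
  have hz : z ∈ Subgroup.center Δ := by
    have ea : ⁅a⁻¹, k⁆ = a⁻¹ * ⁅a, k⁆⁻¹ * a := by simp only [commutatorElement_def]; group
    have eb : ⁅b⁻¹, k⁆ = b⁻¹ * ⁅b, k⁆⁻¹ * b := by simp only [commutatorElement_def]; group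
    have e : z = b⁻¹ * ⁅a⁻¹, k⁆ * b * ⁅b⁻¹, k⁆ := by simp only [hzdef, hg, commutatorElement_def]; group
    have hN := (inferInstance : (Subgroup.center Δ).Normal).conj_mem
    have ha' : ⁅a⁻¹, k⁆ ∈ Subgroup.center Δ := by
      rw [ea]; simpa using hN _ (inv_mem h1) a⁻¹
    have hb' : ⁅b⁻¹, k⁆ ∈ Subgroup.center Δ := by
      rw [eb]; simpa using hN _ (inv_mem h2) b⁻¹
    rw [e]
    exact mul_mem (by simpa using hN _ ha' b⁻¹) hb'
  have hk : g⁻¹ * k * g = z * k := by simp only [hzdef, commutatorElement_def]; group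
  have e1 : g⁻¹ * ⁅b, k⁆ * g = ⁅b, k⁆ := by
    rw [mul_assoc, ← Subgroup.mem_center_iff.mp h2 g, inv_mul_cancel_left]
  rw [← e1]
  conv_lhs => rw [show g⁻¹ * ⁅b, k⁆ * g = ⁅g⁻¹ * b * g, g⁻¹ * k * g⁆ by
    simp only [commutatorElement_def]; group]
  rw [hk, ← Subgroup.mem_center_iff.mp hz k, commutator_central_right hz]
  have hb : g⁻¹ * b * g = a := by
    conv_lhs => rw [conj_of_braid h]
    rw [hg]
    group
  rw [hb]

end pieces

/-- In a stem extension of `PSp₆(2)` the kernel has at most two elements. -/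
theorem card_ker_le_two {F : Type*} [Field F] [Finite F] [CharP F 2] (hF : Nat.card F = 2) {Δ : Type*}
    [Group Δ] [Finite Δ] {τ : Δ →* Cfsg.PSp 3 F} (hτ : Cfsg.IsStemExtension τ) : Nat.card τ.ker ≤ 2 := by
  haveI := finite_W7
  have hcen : ∀ {x : Δ}, τ x = 1 → x ∈ Subgroup.center Δ := fun h => hτ.2.1 h
  let g : Fin 7 → Cfsg.PSp 3 F := fun i => pspHom F (CoxeterMatrix.E₇.simple i)
  have hgg : ∀ i, g i * g i = 1 := fun i => by
    show pspHom F _ * pspHom F _ = 1
    rw [← map_mul, ← CoxeterMatrix.toCoxeterSystem_simple, CoxeterSystem.simple_mul_simple_self, map_one]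
  have hrel : ∀ i j, (g i * g j) ^ mE7 i j = 1 := fun i j => by
    show (pspHom F _ * pspHom F _) ^ CoxeterMatrix.E₇ i j = 1
    rw [← map_mul, ← map_pow, ← CoxeterMatrix.toCoxeterSystem_simple, CoxeterSystem.simple_mul_simple_pow,
      map_one]
  have hg3 : ∀ i j, mE7 i j = 3 → g i * g j * g i = g j * g i * g j := by
    intro i j h
    have e := hrel i j
    rw [h, pow_three] at e
    have hi : (g i)⁻¹ = g i := inv_eq_of_mul_eq_one_right (hgg i)
    have hj : (g j)⁻¹ = g j := inv_eq_of_mul_eq_one_right (hgg j)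
    calc g i * g j * g i = (g i * g j * g i) * (g j * g i * g j) * (g j * g i * g j)⁻¹ := by group
      _ = (g j * g i * g j)⁻¹ := by
          rw [show g i * g j * g i * (g j * g i * g j) = g i * g j * (g i * g j * (g i * g j)) by group, e,
            one_mul]
      _ = g j * g i * g j := by rw [mul_inv_rev, mul_inv_rev, hi, hj, ← mul_assoc]
  have hg2 : ∀ i j, mE7 i j = 2 → g i * g j = g j * g i := by
    intro i j h
    have e := hrel i j
    rw [h, pow_two] at e
    have hi : (g i)⁻¹ = g i := inv_eq_of_mul_eq_one_right (hgg i)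
    have hj : (g j)⁻¹ = g j := inv_eq_of_mul_eq_one_right (hgg j)
    rw [← inv_eq_of_mul_eq_one_right e, mul_inv_rev, hi, hj]
  -- lifts
  have hadj : ∀ i j : Fin 7, mE7 i j = 3 → ∀ x y : Δ, τ x = g i → τ y = g j →
      ∃ z ∈ τ.ker, x * (y * z) * x = y * z * x * (y * z) := by
    intro i j h x y hx hy
    refine exists_braid hτ.2.1 (d := (y * x * y)⁻¹ * (x * y * x)) ?_ (by group)
    rw [MonoidHom.mem_ker]
    simp only [map_mul, map_inv, hx, hy]
    rw [hg3 i j h, inv_mul_cancel]
  let L : Fin 7 → Δ := fun i => Function.surjInv hτ.1 (g i)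
  have hL : ∀ i, τ (L i) = g i := fun i => Function.surjInv_eq hτ.1 _
  have hT : ∀ (i : Fin 7) (z : Δ), z ∈ τ.ker → τ (L i * z) = g i := fun i z hz => by
    rw [map_mul, hL, MonoidHom.mem_ker.mp hz, mul_one]
  obtain ⟨z2, k2, b32⟩ := hadj 3 2 (by decide) _ _ (hL 3) (hL 2)
  obtain ⟨z1, k1, b31⟩ := hadj 3 1 (by decide) _ _ (hL 3) (hL 1)
  obtain ⟨z4, k4, b34⟩ := hadj 3 4 (by decide) _ _ (hL 3) (hL 4)
  obtain ⟨z0, k0, b20⟩ := hadj 2 0 (by decide) _ _ (hT 2 z2 k2) (hL 0)
  obtain ⟨z5, k5, b45⟩ := hadj 4 5 (by decide) _ _ (hT 4 z4 k4) (hL 5)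
  obtain ⟨z6, k6, b56⟩ := hadj 5 6 (by decide) _ _ (hT 5 z5 k5) (hL 6)
  let y : Fin 7 → Δ := ![L 0 * z0, L 1 * z1, L 2 * z2, L 3, L 4 * z4, L 5 * z5, L 6 * z6]
  have hy : ∀ i, τ (y i) = g i := by
    intro i
    fin_cases i
    · exact hT 0 z0 k0
    · exact hT 1 z1 k1
    · exact hT 2 z2 k2
    · exact hL 3
    · exact hT 4 z4 k4
    · exact hT 5 z5 k5
    · exact hT 6 z6 k6
  have hbr : ∀ i j, mE7 i j = 3 → y i * y j * y i = y j * y i * y j := by
    intro i j h
    fin_cases i <;> fin_cases j <;>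
      first
        | exact absurd h (by decide)
        | exact b32
        | exact b31
        | exact b34
        | exact b20
        | exact b45
        | exact b56
        | exact b32.symm
        | exact b31.symm
        | exact b34.symm
        | exact b20.symm
        | exact b45.symm
        | exact b56.symm
  have hsqc : ∀ i, y i * y i ∈ Subgroup.center Δ := fun i => hcen (by rw [map_mul, hy, hgg])
  set c := y 3 * y 3 with hcdef
  have hsq : ∀ i, y i * y i = c := by
    have e : ∀ i j, mE7 i j = 3 → y j * y j = y i * y i := fun i j h => sq_eq_of_braid (hbr i j h) (hsqc i)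
    intro i
    fin_cases i
    · exact (e 2 0 (by decide)).trans (e 3 2 (by decide))
    · exact e 3 1 (by decide)
    · exact e 3 2 (by decide)
    · rfl
    · exact e 3 4 (by decide)
    · exact (e 4 5 (by decide)).trans (e 3 4 (by decide))
    · exact ((e 5 6 (by decide)).trans (e 4 5 (by decide))).trans (e 3 4 (by decide))
  set b := ⁅y 0, y 1⁆ with hbdef
  have hBk : ∀ i j, mE7 i j = 2 → τ ⁅y i, y j⁆ = 1 := fun i j h => by
    rw [map_commutatorElement, hy, hy, commutatorElement_eq_one_iff_commute]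
    exact hg2 i j h
  have hBc : ∀ i j, mE7 i j = 2 → ⁅y i, y j⁆ ∈ Subgroup.center Δ := fun i j h => hcen (hBk i j h)
  have hb2 : ∀ i j, mE7 i j = 2 → ⁅y i, y j⁆ * ⁅y i, y j⁆ = 1 := by
    intro i j h
    have h1 : ⁅y i * y i, y j⁆ = y i * ⁅y i, y j⁆ * (y i)⁻¹ * ⁅y i, y j⁆ := by
      simp only [commutatorElement_def]; group
    rw [commutatorElement_eq_one_iff_commute.mpr
      ((Subgroup.mem_center_iff.mp (hsqc i) (y j)).symm), Subgroup.mem_center_iff.mp (hBc i j h) (y i),
      mul_inv_cancel_right] at h1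
    exact h1.symm
  have hmove : ∀ i j k, mE7 i j = 3 → mE7 i k = 2 → mE7 j k = 2 → ⁅y i, y k⁆ = b → ⁅y j, y k⁆ = b := by
    intro i j k h hi hj e
    rw [commutator_move (hbr i j h) (hBc i k hi) (hBc j k hj), e]
  have hswap : ∀ i j, mE7 i j = 2 → ⁅y i, y j⁆ = b → ⁅y j, y i⁆ = b := by
    intro i j h e
    rw [← commutatorElement_inv, inv_eq_of_mul_eq_one_right (hb2 i j h), e]
  have p01 : ⁅y 0, y 1⁆ = b := rfl
  have p21 := hmove 0 2 1 (by decide) (by decide) (by decide) p01
  have p10 := hswap 0 1 (by decide) p01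
  have p30 := hmove 1 3 0 (by decide) (by decide) (by decide) p10
  have p40 := hmove 3 4 0 (by decide) (by decide) (by decide) p30
  have p04 := hswap 4 0 (by decide) p40
  have p24 := hmove 0 2 4 (by decide) (by decide) (by decide) p04
  have p50 := hmove 4 5 0 (by decide) (by decide) (by decide) p40
  have p42 := hswap 2 4 (by decide) p24
  have p52 := hmove 4 5 2 (by decide) (by decide) (by decide) p42
  have p60 := hmove 5 6 0 (by decide) (by decide) (by decide) p50
  have p25 := hswap 5 2 (by decide) p52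
  have p35 := hmove 2 3 5 (by decide) (by decide) (by decide) p25
  have p62 := hmove 5 6 2 (by decide) (by decide) (by decide) p52
  have p15 := hmove 3 1 5 (by decide) (by decide) (by decide) p35
  have p53 := hswap 3 5 (by decide) p35
  have p63 := hmove 5 6 3 (by decide) (by decide) (by decide) p53
  have p51 := hswap 1 5 (by decide) p15
  have p41 := hmove 5 4 1 (by decide) (by decide) (by decide) p51
  have p61 := hmove 5 6 1 (by decide) (by decide) (by decide) p51
  have p36 := hswap 6 3 (by decide) p63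
  have p46 := hmove 3 4 6 (by decide) (by decide) (by decide) p36
  have hall : ∀ i j, mE7 i j = 2 → ⁅y i, y j⁆ = b := by
    intro i j h
    fin_cases i <;> fin_cases j <;>
      first
        | exact absurd h (by decide)
        | assumption
        | exact hswap _ _ (by decide) ‹_›
  -- generation
  have hgen : Subgroup.closure (Set.range y) = ⊤ ∧ commutator Δ = ⊤ := by
    set Hy := Subgroup.closure (Set.range y)
    have hmap : Hy.map τ = ⊤ := by
      rw [MonoidHom.map_closure, eq_top_iff, ← Subgroup.map_top_of_surjective _ (pspHom_surjective hF),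
        ← closure_simple, MonoidHom.map_closure]
      refine Subgroup.closure_mono ?_
      rintro _ ⟨_, ⟨i, rfl⟩, rfl⟩
      exact ⟨y i, ⟨i, rfl⟩, hy i⟩
    have hdec : ∀ x : Δ, ∃ h ∈ Hy, ∃ z ∈ τ.ker, x = h * z := by
      intro x
      obtain ⟨h, hh, e⟩ := hmap.ge (Subgroup.mem_top (τ x))
      exact ⟨h, hh, h⁻¹ * x, by rw [MonoidHom.mem_ker, map_mul, map_inv, e, inv_mul_cancel], by group⟩
    have hle : commutator Δ ≤ Hy := by
      rw [commutator_def, Subgroup.commutator_le]
      intro x _ x' _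
      obtain ⟨h, hh, z, hz, rfl⟩ := hdec x
      obtain ⟨h', hh', z', hz', rfl⟩ := hdec x'
      rw [commutator_central_left (hτ.2.1 hz), commutator_central_right (hτ.2.1 hz'), commutatorElement_def]
      exact mul_mem (mul_mem (mul_mem hh hh') (inv_mem hh)) (inv_mem hh')
    refine ⟨eq_top_iff.mpr fun x _ => ?_, eq_top_iff.mpr fun x _ => ?_⟩
    · obtain ⟨h, hh, z, hz, rfl⟩ := hdec x
      exact mul_mem hh (hle (hτ.2.2 hz))
    · have hmap' : (commutator Δ).map τ = ⊤ := by
        rw [commutator_def, Subgroup.map_commutator, Subgroup.map_top_of_surjective _ hτ.1, ← commutator_def,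
          commutator_psp_two]
      obtain ⟨h, hh, e⟩ := hmap'.ge (Subgroup.mem_top (τ x))
      have hz : h⁻¹ * x ∈ τ.ker := by rw [MonoidHom.mem_ker, map_mul, map_inv, e, inv_mul_cancel]
      have := mul_mem hh (hτ.2.2 hz)
      rwa [mul_inv_cancel_left] at this
  -- factor out `b`
  set Bz := Subgroup.zpowers b with hBz
  have hbker : Bz ≤ τ.ker := Subgroup.zpowers_le.mpr (hBk 0 1 (by decide))
  haveI : Bz.Normal := ⟨fun x hx w => by
    rw [Subgroup.mem_center_iff.mp (hcen (hbker hx)) w, mul_inv_cancel_right]; exact hx⟩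
  let q := QuotientGroup.mk' Bz
  have hqc : q c ∈ Subgroup.center (Δ ⧸ Bz) := by
    refine Subgroup.mem_center_iff.mpr fun w => ?_
    obtain ⟨w, rfl⟩ := QuotientGroup.mk'_surjective Bz w
    rw [← map_mul, ← map_mul, Subgroup.mem_center_iff.mp (hsqc 3) w]
  -- adjoin a square root of `c`
  let T := Multiplicative (ZMod (2 * Nat.card (Δ ⧸ Bz)))
  let t : T := Multiplicative.ofAdd 1
  let rel : (Δ ⧸ Bz) × T := (q c, (t * t)⁻¹)
  let S := Subgroup.zpowers rel
  haveI : S.Normal := ⟨fun x hx w => by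
    obtain ⟨n, rfl⟩ := hx
    have hrelc : rel ∈ Subgroup.center ((Δ ⧸ Bz) × T) := Subgroup.mem_center_iff.mpr fun u =>
      Prod.ext (Subgroup.mem_center_iff.mp hqc u.1) (mul_comm _ _)
    rw [Subgroup.mem_center_iff.mp (zpow_mem hrelc n) w, mul_inv_cancel_right]
    exact ⟨n, rfl⟩⟩
  let pX := QuotientGroup.mk' S
  have hrelX : pX (q c, (t * t)⁻¹) = 1 := (QuotientGroup.eq_one_iff rel).mpr ⟨1, zpow_one rel⟩
  let f : Fin 7 → ((Δ ⧸ Bz) × T) ⧸ S := fun i => pX (q (y i), t⁻¹)
  have hf1 : ∀ i, f i * f i = 1 := fun i => by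
    show pX _ * pX _ = 1
    rw [← map_mul, Prod.mk_mul_mk, ← map_mul, hsq, ← mul_inv, hrelX]
  have hf : CoxeterMatrix.E₇.IsLiftable f := by
    refine liftable_of_rels f hf1 (fun i j h => ?_) fun i j h => ?_
    · show pX _ * pX _ = pX _ * pX _
      have e : q (y i) * q (y j) = q (y j) * q (y i) := by
        refine commutatorElement_eq_one_iff_commute.mp ?_
        rw [← map_commutatorElement, hall i j h]
        exact (QuotientGroup.eq_one_iff b).mpr (Subgroup.mem_zpowers b)
      rw [← map_mul, ← map_mul, Prod.mk_mul_mk, Prod.mk_mul_mk, e]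
    · show pX _ * pX _ * pX _ = pX _ * pX _ * pX _
      simp only [← map_mul, Prod.mk_mul_mk, hbr i j h]
  let φ := lift7 f hf
  let ι : Δ ⧸ Bz →* ((Δ ⧸ Bz) × T) ⧸ S := pX.comp (MonoidHom.inl _ _)
  have hι : Function.Injective ι := by
    refine (injective_iff_map_eq_one ι).mpr fun d hd => ?_
    obtain ⟨n, hn⟩ := (QuotientGroup.eq_one_iff _).mp hd
    have e1 : (q c) ^ n = d := congrArg Prod.fst hn
    have e2 : ((t * t)⁻¹) ^ n = 1 := congrArg Prod.snd hn
    have e3 : ((n * (-2) : ℤ) : ZMod (2 * Nat.card (Δ ⧸ Bz))) = 0 := by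
      have e4 : (Multiplicative.ofAdd (-(1 + 1) : ZMod (2 * Nat.card (Δ ⧸ Bz)))) ^ n = 1 := e2
      rw [← ofAdd_zsmul, ofAdd_eq_one, zsmul_eq_mul] at e4
      push_cast
      linear_combination e4
    rw [ZMod.intCast_zmod_eq_zero_iff_dvd] at e3
    obtain ⟨k, hk⟩ := e3
    rw [← e1, show n = (Nat.card (Δ ⧸ Bz) : ℤ) * (-k) by push_cast at hk; linarith, zpow_mul, zpow_natCast,
      pow_card_eq_one', one_zpow]
  -- the derived subgroup
  have hle : ι.range ≤ (commutator W7).map φ := by
    have hX : ∀ d : Δ ⧸ Bz, ∃ x ∈ φ.range, ∃ u : T, ι d = x * pX (1, u) := by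
      let R : Subgroup (Δ ⧸ Bz) :=
        { carrier := {d | ∃ x ∈ φ.range, ∃ u : T, ι d = x * pX (1, u)}
          one_mem' := ⟨1, one_mem _, 1, by rw [map_one, one_mul, Prod.mk_one_one, map_one]⟩
          mul_mem' := fun {d d'} ⟨x, hx, u, e⟩ ⟨x', hx', u', e'⟩ => ⟨x * x', mul_mem hx hx', u * u', by
            have hcomm : pX (1, u) * x' = x' * pX (1, u) := by
              obtain ⟨w, rfl⟩ := QuotientGroup.mk'_surjective S x'
              show pX _ * pX w = pX w * pX _
              rw [← map_mul, ← map_mul]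
              exact congrArg pX (Prod.ext (by simp) (mul_comm _ _))
            rw [map_mul, e, e', show ((1 : Δ ⧸ Bz), u * u') = (1, u) * (1, u') by simp, map_mul,
              mul_assoc x, ← mul_assoc (pX (1, u)), hcomm]
            group⟩
          inv_mem' := fun {d} ⟨x, hx, u, e⟩ => ⟨x⁻¹, inv_mem hx, u⁻¹, by
            have hcomm : pX (1, u) * x = x * pX (1, u) := by
              obtain ⟨w, rfl⟩ := QuotientGroup.mk'_surjective S x
              show pX _ * pX w = pX w * pX _
              rw [← map_mul, ← map_mul]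
              exact congrArg pX (Prod.ext (by simp) (mul_comm _ _))
            rw [map_inv, e, ← hcomm, mul_inv_rev, ← map_inv pX (1, u)]
            simp⟩ }
      have hR : R = ⊤ := by
        rw [eq_top_iff, ← Subgroup.map_top_of_surjective q (QuotientGroup.mk'_surjective Bz), ← hgen.1,
          MonoidHom.map_closure, Subgroup.closure_le]
        rintro _ ⟨_, ⟨i, rfl⟩, rfl⟩
        refine ⟨f i, ⟨_, lift7_simple f hf i⟩, t, ?_⟩
        show pX (q (y i), 1) = pX (q (y i), t⁻¹) * pX (1, t)
        rw [← map_mul, Prod.mk_mul_mk, mul_one, inv_mul_cancel]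
      exact fun d => hR.ge (Subgroup.mem_top d)
    have hperf : commutator (Δ ⧸ Bz) = ⊤ := by
      have h0 : (commutator Δ).map q = ⊤ := by
        rw [hgen.2, Subgroup.map_top_of_surjective _ (QuotientGroup.mk'_surjective Bz)]
      rwa [commutator_def, Subgroup.map_commutator,
        Subgroup.map_top_of_surjective _ (QuotientGroup.mk'_surjective Bz)] at h0
    rw [MonoidHom.range_eq_map, ← hperf, commutator_def, Subgroup.map_commutator, Subgroup.commutator_le]
    rintro _ ⟨d, -, rfl⟩ _ ⟨d', -, rfl⟩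
    obtain ⟨x, ⟨w, rfl⟩, u, e⟩ := hX d
    obtain ⟨x', ⟨w', rfl⟩, u', e'⟩ := hX d'
    have hcz : ∀ u : T, pX (1, u) ∈ Subgroup.center (((Δ ⧸ Bz) × T) ⧸ S) := by
      intro u
      refine Subgroup.mem_center_iff.mpr fun w => ?_
      obtain ⟨w, rfl⟩ := QuotientGroup.mk'_surjective S w
      show pX w * pX _ = pX _ * pX w
      rw [← map_mul, ← map_mul]
      exact congrArg pX (Prod.ext (by simp) (mul_comm _ _))
    rw [e, e', commutator_central_left (hcz u), commutator_central_right (hcz u'), ← map_commutatorElement]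
    exact Subgroup.mem_map_of_mem _ (Subgroup.commutator_mem_commutator (Subgroup.mem_top _) (Subgroup.mem_top _))
  have hcard : Nat.card (Δ ⧸ Bz) ≤ 1451520 := by
    calc Nat.card (Δ ⧸ Bz) = Nat.card ι.range := Nat.card_congr (MonoidHom.ofInjective hι).toEquiv
      _ ≤ Nat.card ((commutator W7).map φ) := Subgroup.card_le_of_le hle
      _ ≤ Nat.card (commutator W7) := Nat.le_of_dvd Nat.card_pos (Subgroup.card_map_dvd _ _)
      _ = 1451520 := (card_commutator_W7 hF).1
  have hΔ : Nat.card Δ = 1451520 * Nat.card τ.ker := by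
    rw [← card_psp_two hF, Subgroup.card_eq_card_quotient_mul_card_subgroup τ.ker,
      Nat.card_congr (QuotientGroup.quotientKerEquivOfSurjective τ hτ.1).toEquiv]
  have hB2 : Nat.card Bz ≤ 2 := by
    rw [hBz, Nat.card_zpowers]
    exact orderOf_le_of_pow_eq_one (by norm_num) (by rw [pow_two]; exact hb2 0 1 (by decide))
  have h := Subgroup.card_eq_card_quotient_mul_card_subgroup Bz
  rw [hΔ] at h
  have := Nat.mul_le_mul hcard hB2
  omega

end Cfsg.Agent.H14.Sp6
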