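import Cfsg.Agent.H14.Sp6.Data
import Cfsg.Agent.H47.CoxeterTypes
import Cfsg.Agent.H2.Generation
import Cfsg.Agent.H2.Perfect
import Cfsg.Agent.H2.Center
import Cfsg.Agent.H2.Card

/-!
# The Coxeter group of type `E₇` maps onto `PSp₆(2)`

The derived subgroup of the Coxeter group maps bijectively.
-/

set_option autoImplicit false

namespace Cfsg.Agent.H14.Sp6

open Cfsg.Agent

/-- The Coxeter group of type `E₇`. -/
abbrev W7 : Type := CoxeterMatrix.E₇.Group

/-- The entries of the Coxeter matrix, as a plain function. -/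
def mE7 (i j : Fin 7) : ℕ := CoxeterMatrix.E₇ i j

theorem liftable_of_rels {G : Type*} [Group G] (f : Fin 7 → G) (hsq : ∀ i, f i * f i = 1)
    (h2 : ∀ i j, CoxeterMatrix.E₇ i j = 2 → f i * f j = f j * f i)
    (h3 : ∀ i j, CoxeterMatrix.E₇ i j = 3 → f i * f j * f i = f j * f i * f j) :
    CoxeterMatrix.E₇.IsLiftable f := by
  have hM' : ∀ i j : Fin 7, mE7 i j = 1 ∧ i = j ∨ mE7 i j = 2 ∨ mE7 i j = 3 := by decide
  have hM : ∀ i j : Fin 7, CoxeterMatrix.E₇ i j = 1 ∧ i = j ∨ CoxeterMatrix.E₇ i j = 2 ∨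
      CoxeterMatrix.E₇ i j = 3 := hM'
  intro i j
  rcases hM i j with ⟨h, rfl⟩ | h | h
  · rw [h, pow_one, hsq]
  · rw [h, pow_two]
    nth_rewrite 2 [h2 i j h]
    rw [mul_assoc, ← mul_assoc (f j), hsq, one_mul, hsq]
  · rw [h, pow_three]
    calc f i * f j * (f i * f j * (f i * f j)) = (f i * f j * f i) * (f j * f i * f j) := by group
      _ = (f i * f j * f i) * (f i * f j * f i) := by rw [h3 i j h]
      _ = f i * f j * (f i * f i) * (f j * f i) := by group
      _ = f i * (f j * f j) * f i := by rw [hsq]; group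
      _ = 1 := by rw [hsq, mul_one, hsq]

/-- The lift of a liftable map. -/
noncomputable def lift7 {G : Type*} [Group G] (f : Fin 7 → G) (hf : CoxeterMatrix.E₇.IsLiftable f) : W7 →* G :=
  CoxeterMatrix.E₇.toCoxeterSystem.lift ⟨f, hf⟩

theorem lift7_simple {G : Type*} [Group G] (f : Fin 7 → G) (hf : CoxeterMatrix.E₇.IsLiftable f) (i : Fin 7) :
    lift7 f hf (CoxeterMatrix.E₇.simple i) = f i := by
  have h := CoxeterMatrix.E₇.toCoxeterSystem.lift_apply_simple hf i
  rwa [CoxeterMatrix.toCoxeterSystem_simple] at h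

theorem ext7 {G : Type*} [Group G] {φ ψ : W7 →* G}
    (h : ∀ i, φ (CoxeterMatrix.E₇.simple i) = ψ (CoxeterMatrix.E₇.simple i)) : φ = ψ := by
  refine CoxeterMatrix.E₇.toCoxeterSystem.ext_simple fun i => ?_
  rw [CoxeterMatrix.toCoxeterSystem_simple]
  exact h i

theorem closure_simple : Subgroup.closure (Set.range CoxeterMatrix.E₇.simple) = ⊤ := by
  rw [← CoxeterMatrix.E₇.toCoxeterSystem.subgroup_closure_range_simple, CoxeterMatrix.toCoxeterSystem_simple]

theorem card_W7 : Nat.card W7 = 2903040 := H47.card_coxeter_E7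

theorem finite_W7 : Finite W7 := Nat.finite_of_card_ne_zero (by rw [card_W7]; norm_num)

/-- The coordinate number of an index. -/
def coordNum : Fin 3 ⊕ Fin 3 → ℕ
  | Sum.inl k => k
  | Sum.inr k => 3 + k

variable (F : Type*) [Field F]

/-- The vector of a binary code. -/
def bitVec (x : ℕ) : Fin 3 ⊕ Fin 3 → F := fun k => (((x >>> coordNum k) % 2 : ℕ) : F)

/-- The form on codes. -/
def formNat (x y : ℕ) : ℕ :=
  (∑ i : Fin 3, ((x >>> (3 + i.val) % 2) * (y >>> i.val % 2) + (x >>> i.val % 2) * (y >>> (3 + i.val) % 2))) % 2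

/-- The seven transvections. -/
def rootVec (i : Fin 7) : ℕ := rootList.getD i 0

variable {F}

theorem sympForm_bitVec [CharP F 2] (x y : ℕ) :
    Cfsg.sympForm 3 F (bitVec F x) (bitVec F y) = (formNat x y : F) := by
  rw [H2.sympForm_apply, formNat, ← CharP.cast_eq_mod F 2, Nat.cast_sum]
  refine Finset.sum_congr rfl fun i _ => ?_
  simp only [bitVec, coordNum, Nat.cast_add, Nat.cast_mul]
  rw [sub_eq_add_neg, CharTwo.neg_eq]

theorem bitVec_xor [CharP F 2] (x y : ℕ) : bitVec F (x ^^^ y) = bitVec F x + bitVec F y := by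
  funext k
  simp only [bitVec, Pi.add_apply, ← Nat.cast_add]
  rw [CharP.natCast_eq_natCast (R := F) (p := 2), Nat.ModEq, Nat.shiftRight_xor_distrib]
  have h : ∀ a b : ℕ, (a ^^^ b) % 2 = (a + b) % 2 := fun a b => by
    rw [Nat.xor_mod_two_eq]
  rw [h]
  omega

theorem bitVec_of_form [CharP F 2] {a b : ℕ} (h : formNat b a = 1) :
    (H2.transv (bitVec F a) (1 : F) : Matrix _ _ F).mulVec (bitVec F b) = bitVec F (b ^^^ a) := by
  rw [H2.coe_transv, H2.sympTransvection_mulVec, sympForm_bitVec, h, Nat.cast_one, one_mul, one_smul,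
    bitVec_xor]

theorem bitVec_of_form_zero [CharP F 2] {a b : ℕ} (h : formNat b a = 0) :
    (H2.transv (bitVec F a) (1 : F) : Matrix _ _ F).mulVec (bitVec F b) = bitVec F b := by
  rw [H2.coe_transv, H2.sympTransvection_mulVec, sympForm_bitVec, h, Nat.cast_zero, mul_zero, zero_smul,
    add_zero]

/-- The symplectic transvections attached to the simple reflections. -/
def spGen (F : Type*) [Field F] (i : Fin 7) : Matrix.symplecticGroup (Fin 3) F :=
  H2.transv (bitVec F (rootVec i)) 1

theorem formNat_rootVec_aux : ∀ i j : Fin 7,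
    formNat (rootVec i) (rootVec j) = if mE7 i j = 3 then 1 else 0 := by decide

theorem formNat_rootVec (i j : Fin 7) :
    formNat (rootVec i) (rootVec j) = if CoxeterMatrix.E₇ i j = 3 then 1 else 0 := formNat_rootVec_aux i j

theorem spGen_liftable [CharP F 2] : CoxeterMatrix.E₇.IsLiftable (spGen F) := by
  have hsq : ∀ i, spGen F i * spGen F i = 1 := fun i => by
    rw [spGen, H2.transv_mul, CharTwo.add_self_eq_zero, H2.transv_zero]
  have hinv : ∀ i, (spGen F i)⁻¹ = spGen F i := fun i => inv_eq_of_mul_eq_one_right (hsq i)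
  refine liftable_of_rels _ hsq ?_ ?_
  · intro i j h
    have hc : spGen F i * spGen F j * (spGen F i)⁻¹ = spGen F j := by
      rw [spGen, spGen, H2.conj_transv, bitVec_of_form_zero]
      rw [formNat_rootVec, CoxeterMatrix.symmetric, h]
      rfl
    exact mul_inv_eq_iff_eq_mul.mp hc
  · intro i j h
    have e : ∀ i j : Fin 7, CoxeterMatrix.E₇ i j = 3 →
        spGen F i * spGen F j * (spGen F i)⁻¹ = H2.transv (bitVec F (rootVec j ^^^ rootVec i)) 1 := by
      intro i j h
      rw [spGen, spGen, H2.conj_transv, bitVec_of_form]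
      rw [formNat_rootVec, CoxeterMatrix.symmetric, h]
      rfl
    have e1 := e i j h
    have e2 := e j i (by rw [CoxeterMatrix.symmetric, h])
    rw [hinv] at e1 e2
    rw [e1, e2, Nat.xor_comm]

/-- The Coxeter group acts on `F⁶`. -/
noncomputable def spHom (F : Type*) [Field F] [CharP F 2] : W7 →* Matrix.symplecticGroup (Fin 3) F :=
  lift7 (spGen F) spGen_liftable

/-- Checks on the orbit tree. -/
theorem orbit_ok : ∀ x : Fin 64, x.val ≠ 0 →
    (depthList.getD x.val 0 = 0 ∧ ∃ i, rootVec i = x.val) ∨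
    (parentList.getD x.val 0 / 8 ≠ 0 ∧ parentList.getD x.val 0 / 8 < 64 ∧
      depthList.getD (parentList.getD x.val 0 / 8) 0 < depthList.getD x.val 0 ∧
      ∃ i : Fin 7, i.val = parentList.getD x.val 0 % 8 ∧
        formNat (parentList.getD x.val 0 / 8) (rootVec i) = 1 ∧
        (parentList.getD x.val 0 / 8) ^^^ rootVec i = x.val) := by
  decide +kernel

theorem exists_code [Finite F] [CharP F 2] (hF : Nat.card F = 2) (v : Fin 3 ⊕ Fin 3 → F) :
    ∃ x : Fin 64, v = bitVec F x.val := by
  have h01 : ∀ a : F, a = 0 ∨ a = 1 := by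
    intro a
    obtain ⟨x, y, hxy, hu⟩ := Nat.card_eq_two_iff.mp hF
    have h0 := (Set.ext_iff.mp hu 0).mpr trivial
    have h1 := (Set.ext_iff.mp hu 1).mpr trivial
    have ha := (Set.ext_iff.mp hu a).mpr trivial
    simp only [Set.mem_insert_iff, Set.mem_singleton_iff] at h0 h1 ha
    rcases ha with rfl | rfl <;> rcases h0 with e | e <;> rcases h1 with e' | e' <;>
      first
        | exact Or.inl e.symm
        | exact Or.inr e'.symm
        | exact absurd (e.trans e'.symm) zero_ne_one
  classical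
  let b : Fin 3 ⊕ Fin 3 → Bool := fun k => decide (v k = 1)
  have hb : ∀ b : Fin 3 ⊕ Fin 3 → Bool, ∃ x : Fin 64, ∀ k, (x.val >>> coordNum k) % 2 = (b k).toNat := by
    decide +kernel
  obtain ⟨x, hx⟩ := hb b
  refine ⟨x, funext fun k => ?_⟩
  show v k = (((x.val >>> coordNum k) % 2 : ℕ) : F)
  rw [hx k]
  rcases h01 (v k) with h | h <;> simp [b, h]

theorem spHom_surjective [Finite F] [CharP F 2] (hF : Nat.card F = 2) : Function.Surjective (spHom F) := by
  have hgen : ∀ i, spGen F i ∈ (spHom F).range := fun i => ⟨_, lift7_simple _ _ i⟩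
  have key : ∀ n : ℕ, ∀ x : Fin 64, x.val ≠ 0 → depthList.getD x.val 0 = n →
      H2.transv (bitVec F x.val) (1 : F) ∈ (spHom F).range := by
    intro n
    induction n using Nat.strong_induction_on with
    | _ n ih =>
      intro x hx hn
      rcases orbit_ok x hx with ⟨-, i, hi⟩ | ⟨h0, h64, hd, i, -, hf, hxor⟩
      · rw [← hi]; exact hgen i
      · have h := mul_mem (mul_mem (hgen i) (ih _ (hn ▸ hd) ⟨_, h64⟩ h0 rfl)) (inv_mem (hgen i))
        rw [spGen, H2.conj_transv, bitVec_of_form hf, hxor] at h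
        exact h
  rw [← MonoidHom.range_eq_top, eq_top_iff, ← H2.closure_transv_eq_top, Subgroup.closure_le]
  rintro _ ⟨v, c, rfl⟩
  obtain ⟨x, rfl⟩ := exists_code hF v
  by_cases hc : c = 0
  · rw [hc, H2.transv_zero]; exact one_mem _
  have hc1 : c = 1 := by
    obtain ⟨a, b, -, hu⟩ := Nat.card_eq_two_iff.mp hF
    have h0 := (Set.ext_iff.mp hu 0).mpr trivial
    have h1 := (Set.ext_iff.mp hu 1).mpr trivial
    have hcc := (Set.ext_iff.mp hu c).mpr trivial
    simp only [Set.mem_insert_iff, Set.mem_singleton_iff] at h0 h1 hcc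
    rcases hcc with rfl | rfl <;> rcases h0 with e | e <;> rcases h1 with e' | e' <;>
      first
        | exact e'.symm
        | exact absurd e.symm hc
        | exact absurd (e.trans e'.symm) zero_ne_one
  rw [hc1]
  by_cases hx : x.val = 0
  · have : H2.transv (bitVec F x.val) (1 : F) = 1 := by
      rw [hx, show bitVec F 0 = (0 : F) • bitVec F 0 by funext k; simp [bitVec], H2.transv_smul, mul_zero,
        zero_mul, H2.transv_zero]
    rw [this]; exact one_mem _
  · exact key _ x hx rfl

/-- The map onto `PSp₆(2)`. -/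
noncomputable def pspHom (F : Type*) [Field F] [CharP F 2] : W7 →* Cfsg.PSp 3 F :=
  (QuotientGroup.mk' _).comp (spHom F)

theorem pspHom_surjective [Finite F] [CharP F 2] (hF : Nat.card F = 2) : Function.Surjective (pspHom F) :=
  (QuotientGroup.mk'_surjective _).comp (spHom_surjective hF)

theorem card_psp_two [Finite F] (hF : Nat.card F = 2) : Nat.card (Cfsg.PSp 3 F) = 1451520 := by
  have h := Subgroup.card_eq_card_quotient_mul_card_subgroup
    (Subgroup.center (Matrix.symplecticGroup (Fin 3) F))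
  rw [H2.card_sp, H2.card_center_sp (by norm_num), hF] at h
  simp only [Finset.prod_range_succ, Finset.prod_range_zero] at h
  norm_num at h
  exact h.symm

theorem commutator_psp_two : commutator (Cfsg.PSp 3 F) = ⊤ := by
  have := congrArg (Subgroup.map (QuotientGroup.mk' (Subgroup.center (Matrix.symplecticGroup (Fin 3) F))))
    (H2.commutator_eq_top_of_three_le (F := F) (m := 3) le_rfl)
  rw [commutator_def] at this ⊢
  rwa [Subgroup.map_commutator, Subgroup.map_top_of_surjective _ (QuotientGroup.mk'_surjective _)] at this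

theorem map_commutator_W7 [Finite F] [CharP F 2] (hF : Nat.card F = 2) :
    (commutator W7).map (pspHom F) = ⊤ := by
  rw [commutator_def, Subgroup.map_commutator, Subgroup.map_top_of_surjective _ (pspHom_surjective hF),
    ← commutator_def, commutator_psp_two]

/-- The sign of an element of the Coxeter group. -/
noncomputable def sign7 : W7 →* ℤˣ :=
  lift7 (fun _ => -1) (liftable_of_rels _ (fun _ => by simp) (fun _ _ _ => rfl) (fun _ _ _ => rfl))

theorem card_commutator_W7 [Finite F] [CharP F 2] (hF : Nat.card F = 2) :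
    Nat.card (commutator W7) = 1451520 ∧ commutator W7 = sign7.ker := by
  haveI := finite_W7
  have h1 : commutator W7 ≤ sign7.ker := Abelianization.commutator_subset_ker _
  have h2 : Nat.card sign7.ker = 1451520 := by
    have h := sign7.ker.card_mul_index
    have hr : sign7.range = ⊤ := by
      rw [eq_top_iff]
      intro u _
      rcases Int.units_eq_one_or u with rfl | rfl
      · exact one_mem _
      · exact ⟨_, lift7_simple _ _ 0⟩
    rw [Subgroup.index_ker, hr, Subgroup.card_top, card_W7, Nat.card_eq_fintype_card (α := ℤˣ),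
      Fintype.card_units_int] at h
    omega
  have h3 : 1451520 ≤ Nat.card (commutator W7) := by
    rw [← card_psp_two hF, ← Subgroup.card_top (G := Cfsg.PSp 3 F), ← map_commutator_W7 hF]
    exact Nat.le_of_dvd Nat.card_pos (Subgroup.card_map_dvd _ _)
  have h4 : Nat.card (commutator W7) ≤ Nat.card sign7.ker := Subgroup.card_le_of_le h1
  exact ⟨by omega, Subgroup.eq_of_le_of_card_ge h1 (by omega)⟩

/-- On the derived subgroup the map to `PSp₆(2)` is injective. -/
theorem eq_one_of_pspHom_eq_one [Finite F] [CharP F 2] (hF : Nat.card F = 2) {w : W7}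
    (hw : w ∈ commutator W7) (h : pspHom F w = 1) : w = 1 := by
  haveI := finite_W7
  let f := (pspHom F).comp (commutator W7).subtype
  have hs : Function.Surjective f := by
    intro g
    obtain ⟨w, hw, rfl⟩ := (map_commutator_W7 hF).ge (Subgroup.mem_top g)
    exact ⟨⟨w, hw⟩, rfl⟩
  have hb := hs.bijective_of_nat_card_le (by rw [(card_commutator_W7 hF).1, card_psp_two hF])
  have : (⟨w, hw⟩ : commutator W7) = 1 := hb.1 (show f _ = f 1 by rw [map_one]; exact h)
  exact congrArg Subtype.val this

end Cfsg.Agent.H14.Sp6
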