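/-! # Tables for the double cover of `Sp₆(2)` -/

set_option autoImplicit false

namespace Cfsg.Agent.H14.Sp6

/-- Binary codes of seven vectors of `F₂⁶` whose forms give the diagram `E₇`. -/
def rootList : List Nat := [49, 10, 8, 1, 12, 32, 6]

/-- Depth of a vector in the orbit tree of the seven vectors. -/
def depthList : List Nat := [0, 0, 16, 2, 8, 2, 0, 2, 0, 1, 0, 1, 0, 1, 4, 3, 10, 8, 5, 7, 4, 8, 11, 7, 6, 7, 9, 8, 10, 9, 5, 6, 0, 4, 6, 4, 7, 3, 1, 3, 6, 5, 2, 3, 1, 2, 5, 4, 12, 0, 3, 15, 3, 9, 12, 6, 2, 1, 13, 14, 11, 10, 4, 5]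

/-- Parent and reflection of a vector in the orbit tree. -/
def parentList : List Nat := [0, 11, 408, 90, 293, 76, 54, 92, 66, 10, 81, 9, 100, 12, 123, 28, 209, 190, 166, 252, 421, 158, 134, 445, 246, 254, 219, 188, 214, 222, 501, 509, 261, 318, 372, 302, 278, 45, 53, 61, 374, 382, 308, 366, 101, 109, 117, 125, 484, 392, 24, 474, 452, 173, 181, 506, 72, 64, 436, 467, 229, 237, 404, 499]

/-- Seven `8 × 8` matrices over the field with three elements (Clifford lifts of the reflections). -/
def cliffordCode : Nat :=
  0x402000010100000020800800000400226022902155440021a58809840684004510492a10808919104a20404a19208004004002000001080000200000100080852046262080492a1089208045151080861045161040852a20462080891a1082520408580868045162040462a202610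

end Cfsg.Agent.H14.Sp6
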